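import Mathlib

/-!
Two best offenders on a module in characteristic two, in a group all of whose `2`-subgroups act quadratically,
generate either a group acting as a `2`-group or a group inducing a symmetric group of degree three on some plane.
-/

set_option autoImplicit false

namespace Cfsg.Agent.Lib.QuadPair

variable {G : Type*} [Group G] {V : Type*} [AddCommGroup V] [DistribMulAction G V]

/-- `H` acts on `W` as a `2`-group. -/
def Uni (H : Subgroup G) (W : AddSubgroup V) : Prop := ∀ h ∈ H, ∃ k : ℕ, ∀ w ∈ W, h ^ (2 ^ k) • w = w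

/-- `W` is invariant under `H`. -/
def Inv (H : Subgroup G) (W : AddSubgroup V) : Prop := ∀ h ∈ H, ∀ w ∈ W, h • w ∈ W

/-- The fixed points of `D` in `W`. -/
def fix (D : Subgroup G) (W : AddSubgroup V) : AddSubgroup V where
  carrier := {w | w ∈ W ∧ ∀ d ∈ D, d • w = w}
  zero_mem' := ⟨W.zero_mem, fun d _ => smul_zero d⟩
  add_mem' := fun {a b} ha hb => ⟨W.add_mem ha.1 hb.1, fun d hd => by rw [smul_add, ha.2 d hd, hb.2 d hd]⟩
  neg_mem' := fun {a} ha => ⟨W.neg_mem ha.1, fun d hd => by rw [smul_neg, ha.2 d hd]⟩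

/-- The elements of `A` fixing `W` pointwise. -/
def ker (A : Subgroup G) (W : AddSubgroup V) : Subgroup G where
  carrier := {a | a ∈ A ∧ ∀ w ∈ W, a • w = w}
  one_mem' := ⟨A.one_mem, fun w _ => one_smul G w⟩
  mul_mem' := fun {a b} ha hb => ⟨A.mul_mem ha.1 hb.1, fun w hw => by rw [mul_smul, hb.2 w hw, ha.2 w hw]⟩
  inv_mem' := fun {a} ha => ⟨A.inv_mem ha.1, fun w hw => inv_smul_eq_iff.2 (ha.2 w hw).symm⟩

/-- A best offender. -/
def Best (A : Subgroup G) (W : AddSubgroup V) : Prop :=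
  ∀ D : Subgroup G, D ≤ A → Nat.card D * Nat.card (fix D W) ≤ Nat.card A * Nat.card (fix A W)

/-- The hypothesis that every `2`-subgroup acts quadratically. -/
def Quadratic (G : Type*) [Group G] (V : Type*) [AddCommGroup V] [DistribMulAction G V] : Prop :=
  ∀ T : Subgroup G, IsPGroup 2 T → ∀ s ∈ T, ∀ t ∈ T, ∀ v : V, s • (t • v + v) = t • v + v

theorem mem_fix {D : Subgroup G} {W : AddSubgroup V} {w : V} : w ∈ fix D W ↔ w ∈ W ∧ ∀ d ∈ D, d • w = w :=
  Iff.rfl

theorem mem_ker {A : Subgroup G} {W : AddSubgroup V} {a : G} : a ∈ ker A W ↔ a ∈ A ∧ ∀ w ∈ W, a • w = w :=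
  Iff.rfl

theorem fix_le {D : Subgroup G} {W : AddSubgroup V} : fix D W ≤ W := fun _ h => h.1

theorem Inv.mono {H H' : Subgroup G} {W : AddSubgroup V} (h : Inv H W) (hle : H' ≤ H) : Inv H' W :=
  fun x hx => h x (hle hx)

section Finite

variable [Finite G]

/-- Induction over a finite group generated by two subgroups. -/
theorem sup_induction {A B : Subgroup G} {p : G → Prop} (hA : ∀ a ∈ A, p a) (hB : ∀ b ∈ B, p b)
    (hm : ∀ g h, g ∈ A ⊔ B → h ∈ A ⊔ B → p g → p h → p (g * h)) {x : G} (hx : x ∈ A ⊔ B) : p x := by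
  have key : ∀ x ∈ A ⊔ B, x ∈ A ⊔ B ∧ p x := by
    intro x hx
    rw [← Subgroup.closure_eq A, ← Subgroup.closure_eq B, ← Subgroup.closure_union, ← Subgroup.mem_toSubmonoid,
      Subgroup.closure_toSubmonoid_of_finite] at hx
    induction hx using Submonoid.closure_induction with
    | mem y hy =>
      rcases hy with hy | hy
      · exact ⟨Subgroup.mem_sup_left hy, hA y hy⟩
      · exact ⟨Subgroup.mem_sup_right hy, hB y hy⟩
    | one => exact ⟨one_mem _, hA 1 A.one_mem⟩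
    | mul g h _ _ hg hh => exact ⟨mul_mem hg.1 hh.1, hm g h hg.1 hh.1 hg.2 hh.2⟩
  exact (key x hx).2

theorem inv_sup {A B : Subgroup G} {W : AddSubgroup V} (hA : Inv A W) (hB : Inv B W) : Inv (A ⊔ B) W := by
  intro h hh
  refine sup_induction (p := fun h => ∀ w ∈ W, h • w ∈ W) hA hB ?_ hh
  intro g k _ _ hg hk w hw
  rw [mul_smul]
  exact hg _ (hk w hw)

/-- A group acting as a `2`-group acts quadratically. -/
theorem Uni.quad (hP : Quadratic G V) {H : Subgroup G} {W : AddSubgroup V} (hW : Inv H W) (hu : Uni H W) :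
    ∀ s ∈ H, ∀ t ∈ H, ∀ w ∈ W, s • (t • w + w) = t • w + w := by
  let K : Subgroup ↥H := (ker H W).subgroupOf H
  haveI hK : K.Normal := ⟨fun k hk g => by
    rw [Subgroup.mem_subgroupOf] at hk ⊢
    refine ⟨(g * k * g⁻¹).2, fun w hw => ?_⟩
    have h1 : ((g⁻¹ : ↥H) : G) • w ∈ W := hW _ (g⁻¹).2 w hw
    simp only [Subgroup.coe_mul, Subgroup.coe_inv] at h1 ⊢
    rw [mul_smul, mul_smul, hk.2 _ h1, smul_inv_smul]⟩
  obtain ⟨T⟩ : Nonempty (Sylow 2 ↥H) := inferInstance
  haveI : Fact (Nat.Prime 2) := ⟨Nat.prime_two⟩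
  have htop : K ⊔ (T : Subgroup ↥H) = ⊤ := by
    have h1 : (K ⊔ (T : Subgroup ↥H)).index ∣ K.index := Subgroup.index_dvd_of_le le_sup_left
    have h2 : (K ⊔ (T : Subgroup ↥H)).index ∣ (T : Subgroup ↥H).index := Subgroup.index_dvd_of_le le_sup_right
    have hp : IsPGroup 2 (↥H ⧸ K) := by
      intro q
      induction q using QuotientGroup.induction_on with
      | _ h =>
        obtain ⟨k, hk⟩ := hu h h.2
        refine ⟨k, ?_⟩
        rw [← QuotientGroup.mk_pow, QuotientGroup.eq_one_iff, Subgroup.mem_subgroupOf]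
        exact ⟨(h ^ 2 ^ k).2, fun w hw => by simpa using hk w hw⟩
    obtain ⟨k, hk⟩ := IsPGroup.iff_card.1 hp
    rw [← Subgroup.index_eq_card] at hk
    rw [hk] at h1
    exact Subgroup.index_eq_one.1 (Nat.eq_one_of_dvd_coprimes
      (Nat.Coprime.pow_left k ((Nat.prime_two.coprime_iff_not_dvd).2 T.not_dvd_index)) h1 h2)
  have hdec : ∀ h ∈ H, ∃ τ ∈ (T : Subgroup ↥H).map H.subtype, ∀ w ∈ W, h • w = τ • w := by
    intro h hh
    obtain ⟨k, hk, τ, hτ, e⟩ := Subgroup.mem_sup_of_normal_left.1 (htop.symm ▸ Subgroup.mem_top (⟨h, hh⟩ : ↥H))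
    refine ⟨τ, ⟨τ, hτ, rfl⟩, fun w hw => ?_⟩
    have e' : (k : G) * (τ : G) = h := congrArg Subtype.val e
    rw [← e', mul_smul]
    exact (Subgroup.mem_subgroupOf.1 hk).2 _ (hW _ τ.2 w hw)
  intro s hs t ht w hw
  obtain ⟨σ, hσ, hσw⟩ := hdec s hs
  obtain ⟨τ, hτ, hτw⟩ := hdec t ht
  rw [hσw _ (W.add_mem (hW t ht w hw) hw), hτw w hw]
  exact hP _ (T.2.map H.subtype) σ hσ τ hτ w

end Finite

section Char

variable (h2 : ∀ v : V, v + v = 0)
include h2

theorem add_add_self (v w : V) : v + w + w = v := by rw [add_assoc, h2, add_zero]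

theorem sq_fix (hP : Quadratic G V) {T : Subgroup G} (hT : IsPGroup 2 T) {t : G} (ht : t ∈ T) (v : V) :
    t • t • v = v := by
  have h := hP T hT t ht t ht v
  rw [smul_add] at h
  have := congrArg (fun z => z + t • v) h
  simp only [add_add_self h2] at this
  rw [this, add_comm, ← add_assoc, h2, zero_add]

/-- If `m = h ^ 2 ^ k` fixes `X` and moves `w` into `X`, its square fixes `w`. -/
theorem pow_fix {h : G} {k : ℕ} {X : AddSubgroup V} (hX : ∀ z ∈ X, h ^ 2 ^ k • z = z) {w : V}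
    (hw : h ^ 2 ^ k • w + w ∈ X) : h ^ 2 ^ (k + 1) • w = w := by
  rw [pow_succ, pow_mul, pow_two, mul_smul]
  have e : h ^ 2 ^ k • w = (h ^ 2 ^ k • w + w) + w := (add_add_self h2 _ w).symm
  conv_lhs => rw [e]
  rw [smul_add, hX _ hw, add_comm (h ^ 2 ^ k • w) w, add_add_self h2]

end Char

end Cfsg.Agent.Lib.QuadPair
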