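import Cfsg.Agent.Lib.QuadPair.Basic

/-!
Best offenders: restriction and conjugation; the filtration criterion for acting as a `2`-group.
-/

set_option autoImplicit false

namespace Cfsg.Agent.Lib.QuadPair

variable {G : Type*} [Group G] {V : Type*} [AddCommGroup V] [DistribMulAction G V]

theorem card_sup_mul_card_inf (X Y : AddSubgroup V) [Finite V] :
    Nat.card ↥(X ⊔ Y) * Nat.card ↥(X ⊓ Y) = Nat.card X * Nat.card Y := by
  have h1 : Nat.card ↥Y * Y.relIndex (X ⊔ Y) = Nat.card ↥(X ⊔ Y) := by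
    rw [← AddSubgroup.card_mul_index (Y.addSubgroupOf (X ⊔ Y)),
      Nat.card_congr (AddSubgroup.addSubgroupOfEquivOfLe (le_sup_right : Y ≤ X ⊔ Y)).toEquiv]
    rfl
  have h2 : Nat.card ↥(X ⊓ Y) * (X ⊓ Y).relIndex X = Nat.card ↥X := by
    rw [← AddSubgroup.card_mul_index ((X ⊓ Y).addSubgroupOf X),
      Nat.card_congr (AddSubgroup.addSubgroupOfEquivOfLe (inf_le_left : X ⊓ Y ≤ X)).toEquiv]
    rfl
  rw [← h1, ← h2, AddSubgroup.relIndex_sup_right, AddSubgroup.inf_relIndex_left]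
  ring

section

variable [Finite G] [Finite V]

omit [Finite G] in
/-- Best offenders restrict. -/
theorem Best.restrict {A : Subgroup G} {W W' : AddSubgroup V} (hA : Best A W) (hle : W' ≤ W) : Best A W' := by
  intro D hD
  have h1 : fix D W' ⊔ fix A W ≤ fix D W :=
    sup_le (fun w hw => ⟨hle hw.1, hw.2⟩) (fun w hw => ⟨hw.1, fun d hd => hw.2 d (hD hd)⟩)
  have h2 : fix D W' ⊓ fix A W ≤ fix A W' := fun w hw => ⟨hw.1.1, hw.2.2⟩
  have h3 := hA D hD
  refine Nat.le_of_mul_le_mul_right ?_ (Nat.card_pos (α := ↥(fix A W)))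
  calc Nat.card D * Nat.card (fix D W') * Nat.card (fix A W)
      = Nat.card D * (Nat.card ↥(fix D W' ⊔ fix A W) * Nat.card ↥(fix D W' ⊓ fix A W)) := by
        rw [card_sup_mul_card_inf]; ring
    _ ≤ Nat.card D * (Nat.card (fix D W) * Nat.card (fix A W')) :=
        Nat.mul_le_mul_left _ (Nat.mul_le_mul (AddSubgroup.card_le_of_le h1) (AddSubgroup.card_le_of_le h2))
    _ = Nat.card D * Nat.card (fix D W) * Nat.card (fix A W') := by ring
    _ ≤ Nat.card A * Nat.card (fix A W) * Nat.card (fix A W') := Nat.mul_le_mul_right _ h3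
    _ = Nat.card A * Nat.card (fix A W') * Nat.card (fix A W) := by ring

omit [Finite G] [Finite V] in
theorem ker_le {A : Subgroup G} {W : AddSubgroup V} : ker A W ≤ A := fun _ h => h.1

omit [Finite G] [Finite V] in
theorem fix_ker {A : Subgroup G} {W : AddSubgroup V} : fix (ker A W) W = W :=
  le_antisymm fix_le fun w hw => ⟨hw, fun _ hd => hd.2 w hw⟩

omit [Finite G] [Finite V] in
/-- A best offender is an offender. -/
theorem Best.offender {A : Subgroup G} {W : AddSubgroup V} (hA : Best A W) :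
    Nat.card (ker A W) * Nat.card W ≤ Nat.card A * Nat.card (fix A W) := by
  simpa only [fix_ker] using hA (ker A W) ker_le

omit [Finite G] [Finite V] in
theorem card_map_conj (D : Subgroup G) (g : G) :
    Nat.card (D.map (MulAut.conj g).toMonoidHom) = Nat.card D :=
  Subgroup.card_map_of_injective (MulAut.conj g).injective

omit [Finite G] [Finite V] in
theorem card_fix_conj (D : Subgroup G) {W : AddSubgroup V} {g : G} (hg : ∀ w, g • w ∈ W ↔ w ∈ W) :
    Nat.card (fix (D.map (MulAut.conj g).toMonoidHom) W) = Nat.card (fix D W) := by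
  refine Nat.card_congr
    { toFun := fun w => ⟨g⁻¹ • (w : V), (hg _).1 (by simpa using w.2.1), fun d hd => ?_⟩
      invFun := fun w => ⟨g • (w : V), (hg _).2 w.2.1, ?_⟩
      left_inv := fun w => Subtype.ext (by simp)
      right_inv := fun w => Subtype.ext (by simp) }
  · have h := w.2.2 (g * d * g⁻¹) ⟨d, hd, rfl⟩
    rw [mul_smul, mul_smul, smul_eq_iff_eq_inv_smul] at h
    exact h
  · rintro _ ⟨d, hd, rfl⟩
    show (g * d * g⁻¹) • g • (w : V) = g • (w : V)
    rw [mul_smul, inv_smul_smul, mul_smul, w.2.2 d hd]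

omit [Finite G] [Finite V] in
theorem Best.conj {A : Subgroup G} {W : AddSubgroup V} (hA : Best A W) {g : G} (hg : ∀ w, g • w ∈ W ↔ w ∈ W) :
    Best (A.map (MulAut.conj g).toMonoidHom) W := by
  intro D hD
  obtain ⟨E, hE, rfl⟩ : ∃ E ≤ A, E.map (MulAut.conj g).toMonoidHom = D := by
    refine ⟨D.comap (MulAut.conj g).toMonoidHom, ?_,
      Subgroup.map_comap_eq_self_of_surjective (MulAut.conj g).surjective D⟩
    exact (Subgroup.comap_mono hD).trans
      (Subgroup.comap_map_eq_self_of_injective (MulAut.conj g).injective A).le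
  rw [card_map_conj, card_map_conj, card_fix_conj _ hg, card_fix_conj _ hg]
  exact hA E hE

end

section

variable (h2 : ∀ v : V, v + v = 0)
include h2

/-- A generating set whose products of four displacement maps vanish acts as a `2`-group. -/
theorem uni_of_words [Finite G] {A B : Subgroup G} {W : AddSubgroup V} (hA : Inv A W) (hB : Inv B W)
    (h4 : ∀ s₁ ∈ (A : Set G) ∪ B, ∀ s₂ ∈ (A : Set G) ∪ B, ∀ s₃ ∈ (A : Set G) ∪ B, ∀ s₄ ∈ (A : Set G) ∪ B,
      ∀ w ∈ W, s₄ • (s₃ • (s₂ • (s₁ • w + w) + (s₁ • w + w)) + (s₂ • (s₁ • w + w) + (s₁ • w + w))) +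
        (s₃ • (s₂ • (s₁ • w + w) + (s₁ • w + w)) + (s₂ • (s₁ • w + w) + (s₁ • w + w))) = 0) :
    Uni (A ⊔ B) W := by
  classical
  have hinv := inv_sup hA hB
  have hWm : ∀ s ∈ (A : Set G) ∪ B, ∀ w ∈ W, s • w + w ∈ W := fun s hs w hw =>
    W.add_mem (hs.elim (fun h => hA s h w hw) (fun h => hB s h w hw)) hw
  let F : ℕ → AddSubgroup V := fun k => Nat.rec (⊥ : AddSubgroup V) (fun _ P =>
    { carrier := {w | w ∈ W ∧ ∀ s ∈ (A : Set G) ∪ B, s • w + w ∈ P}
      zero_mem' := ⟨W.zero_mem, fun s _ => by rw [smul_zero, add_zero]; exact P.zero_mem⟩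
      add_mem' := fun {a b} ha hb => ⟨W.add_mem ha.1 hb.1, fun s hs => by
        rw [smul_add, add_add_add_comm]; exact P.add_mem (ha.2 s hs) (hb.2 s hs)⟩
      neg_mem' := fun {a} ha => ⟨W.neg_mem ha.1, fun s hs => by
        rw [smul_neg, ← neg_add]; exact P.neg_mem (ha.2 s hs)⟩ }) k
  have hmono : ∀ k, F k ≤ F (k + 1) := by
    intro k
    induction k with
    | zero => exact bot_le
    | succ k ih => exact fun w hw => ⟨hw.1, fun s hs => ih (hw.2 s hs)⟩
  have hdisp : ∀ h ∈ A ⊔ B, ∀ k, ∀ w ∈ F (k + 1), h • w + w ∈ F k := by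
    intro h hh
    refine sup_induction (p := fun h => ∀ k, ∀ w ∈ F (k + 1), h • w + w ∈ F k)
      (fun a ha k w hw => hw.2 a (Or.inl ha)) (fun b hb k w hw => hw.2 b (Or.inr hb)) ?_ hh
    intro g j _ _ hg hj k w hw
    have hz : g • (j • w + w) + (j • w + w) ∈ F k := by
      cases k with
      | zero =>
        have h0 : j • w + w = 0 := hj 0 w hw
        rw [h0, smul_zero, add_zero]; exact zero_mem _
      | succ k => exact hmono k (hg k _ (hj (k + 1) w hw))
    have e : (g * j) • w + w = (g • (j • w + w) + (j • w + w)) + (j • w + w) + (g • w + w) := by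
      rw [mul_smul, add_add_self h2, smul_add, ← add_assoc, add_add_self h2]
    rw [e]
    exact add_mem (add_mem hz (hj k w hw)) (hg k w hw)
  have hpow : ∀ k, ∀ h ∈ A ⊔ B, ∀ w ∈ F k, h ^ 2 ^ k • w = w := by
    intro k
    induction k with
    | zero => intro h _ w hw; rw [AddSubgroup.mem_bot.1 hw, smul_zero]
    | succ k ih => exact fun h hh w hw => pow_fix h2 (ih h hh) (hdisp _ (pow_mem hh _) k w hw)
  intro h hh
  refine ⟨4, fun w hw => hpow 4 h hh w ?_⟩
  refine ⟨hw, fun s₁ hs₁ => ⟨hWm _ hs₁ _ hw, fun s₂ hs₂ => ⟨hWm _ hs₂ _ (hWm _ hs₁ _ hw), fun s₃ hs₃ =>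
    ⟨hWm _ hs₃ _ (hWm _ hs₂ _ (hWm _ hs₁ _ hw)), fun s₄ hs₄ => ?_⟩⟩⟩⟩
  exact AddSubgroup.mem_bot.2 (h4 s₁ hs₁ s₂ hs₂ s₃ hs₃ s₄ hs₄ w hw)

end

end Cfsg.Agent.Lib.QuadPair
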