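import Cfsg.Agent.Lib.QuadPair.Best
import Cfsg.Agent.Lib.Coprime.Abelian
import Cfsg.Agent.Lib.Thompson.Elementary

/-!
Without transvection planes an elementary abelian `2`-group `E` acting faithfully on a normalised odd group
has `|E| ^ 2` at most the index of its fixed points.
-/

set_option autoImplicit false

namespace Cfsg.Agent.Lib.QuadPair

/-- A plane on which two elements induce a symmetric group of degree three. -/
def Plane3 (G : Type*) [Group G] (V : Type*) [AddCommGroup V] [DistribMulAction G V] : Prop :=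
  ∃ c b : G, ∃ w y : V, w ≠ 0 ∧ y ≠ 0 ∧ y ≠ w ∧ c • w = w ∧ c • y = w + y ∧ b • w = w + y ∧ b • y = y

variable {G : Type*} [Group G] [Finite G] {V : Type*} [AddCommGroup V] [DistribMulAction G V]

theorem fixed_of_sq {x : G} (hodd : Odd (orderOf x)) {z : V} (h : x • x • z = z) : x • z = z := by
  obtain ⟨k, hk⟩ := hodd
  have h1 : x = (x * x) ^ (k + 1) := by
    rw [← pow_two, ← pow_mul, show 2 * (k + 1) = orderOf x + 1 by omega, pow_succ, pow_orderOf_eq_one, one_mul]
  rw [h1]
  clear h1 hk
  induction k + 1 with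
  | zero => rw [pow_zero, one_smul]
  | succ n ih => rw [pow_succ, mul_smul, mul_smul, h, ih]

/-- An involution inverting an element of odd order is not a transvection. -/
theorem plane_of_transvection (h2 : ∀ v : V, v + v = 0) {S : AddSubgroup V} {e x : G} (hee : e * e = 1)
    (hex : e * x * e⁻¹ = x⁻¹) (hodd : Odd (orderOf x)) (hSe : ∀ u ∈ S, e • u ∈ S) (hSx : ∀ u ∈ S, x • u ∈ S)
    (htr : ∀ u ∈ S, ∀ v ∈ S, e • u + u ≠ 0 → e • v + v ≠ 0 → e • u + u = e • v + v)
    (hz : ∃ z ∈ S, x • z ≠ z) : Plane3 G V := by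
  have hei : e⁻¹ = e := inv_eq_of_mul_eq_one_right hee
  have hxi : ∀ u : V, x⁻¹ • u = e • x • e • u := fun u => by
    rw [← mul_smul, ← mul_smul, ← hex, hei, mul_assoc]
  have hSxi : ∀ u ∈ S, x⁻¹ • u ∈ S := fun u hu => by
    rw [hxi]; exact hSe _ (hSx _ (hSe u hu))
  have he2 : ∀ u : V, e • e • u = u := fun u => by rw [← mul_smul, hee, one_smul]
  have hsub : ∀ u : V, e • u + u = 0 → e • u = u := fun u h => by
    have := congrArg (fun t => t + u) h
    simpa only [add_add_self h2, zero_add] using this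
  obtain ⟨z, hzS, hz⟩ := hz
  by_cases h0 : ∀ u ∈ S, e • u + u = 0
  · refine absurd (fixed_of_sq hodd ?_) hz
    have h := hxi z
    rw [hsub z (h0 z hzS), hsub _ (h0 _ (hSx z hzS))] at h
    rw [← h, smul_inv_smul]
  push Not at h0
  obtain ⟨v, hv, hva⟩ := h0
  obtain ⟨a, ha⟩ : ∃ a, a = e • v + v := ⟨_, rfl⟩
  rw [← ha] at hva
  have haS : a ∈ S := by rw [ha]; exact S.add_mem (hSe v hv) hv
  have hea : e • a = a := by rw [ha, smul_add, he2, add_comm]
  have hne : ∀ u ∈ S, e • u = u ∨ e • u = u + a := fun u hu => by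
    by_cases h : e • u + u = 0
    · exact Or.inl (hsub u h)
    · refine Or.inr ?_
      have h' := htr u hu v hv h (ha ▸ hva)
      rw [← ha] at h'
      rw [← h', add_comm u, add_add_self h2]
  have hxia : x⁻¹ • a = e • x • a := by rw [hxi, hea]
  rcases hne _ (hSx a haS) with h | h
  · exfalso
    have hxa : x • a = a := fixed_of_sq hodd (by rw [← h, ← hxia, smul_inv_smul])
    have hxia' : x⁻¹ • a = a := by rw [hxia, hxa, hea]
    have hsq : ∀ u ∈ S, x • x • u = u ∨ x • x • u = u + a := by
      intro u hu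
      have h1 : x • x • u = x • e • x⁻¹ • e • u := by rw [hxi, he2, he2]
      rw [h1]
      rcases hne u hu with e1 | e1 <;> rw [e1]
      · rcases hne _ (hSxi u hu) with e2 | e2 <;> rw [e2]
        · left; rw [smul_inv_smul]
        · right; rw [smul_add, smul_inv_smul, hxa]
      · rw [smul_add x⁻¹, hxia']
        rcases hne _ (hSxi u hu) with e2 | e2 <;> rw [smul_add e, e2, hea]
        · right; rw [smul_add, smul_inv_smul, hxa]
        · left; rw [add_add_self h2, smul_inv_smul]
    refine hz (fixed_of_sq hodd ?_)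
    rcases hsq z hzS with e1 | e1
    · exact e1
    · exfalso
      have h4 : (x * x) • (x * x) • z = z := by
        rw [mul_smul, mul_smul, e1, smul_add, smul_add, hxa, hxa, e1, add_add_self h2]
      have hodd' : Odd (orderOf (x * x)) := hodd.of_dvd_nat (by rw [← pow_two]; exact orderOf_pow_dvd 2)
      have h5 := fixed_of_sq hodd' h4
      rw [mul_smul, e1, add_eq_left] at h5
      exact hva h5
  · refine ⟨e, x * e * x⁻¹, a, x • a, hva, fun e0 => hva ?_, fun e0 => hva ?_, hea, by rw [h, add_comm], ?_, ?_⟩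
    · have := congrArg (fun t => x⁻¹ • t) e0
      simpa using this
    · rw [e0, hea] at h
      exact (add_eq_left.1 h.symm)
    · rw [mul_smul, mul_smul, hxia, he2]
      have h1 : x • x⁻¹ • a = x • x • a + x • a := by rw [hxia, h, smul_add]
      rw [smul_inv_smul] at h1
      have := congrArg (fun t => t + x • a) h1
      simpa only [add_add_self h2] using this.symm
    · rw [mul_smul, mul_smul, inv_smul_smul, hea]

/-- The bound. -/
theorem bound [Finite V] [FaithfulSMul G V] (h2 : ∀ v : V, v + v = 0) (hno : ¬ Plane3 G V) {R : Subgroup G}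
    (hR : Odd (Nat.card R)) : ∀ E : Subgroup G, Cfsg.IsElementaryAbelian 2 E → E ≤ Subgroup.normalizer (R : Set G) →
      Nat.card E * Nat.card E * Nat.card (fix E (⊤ : AddSubgroup V)) ≤
        Nat.card ↥(E ⊓ Subgroup.centralizer (R : Set G)) * Nat.card ↥(E ⊓ Subgroup.centralizer (R : Set G)) *
          Nat.card V := by
  classical
  intro E
  induction E using WellFoundedLT.induction with
  | _ E ih =>
  intro hE hER
  set E0 := E ⊓ Subgroup.centralizer (R : Set G) with hE0
  by_cases hER0 : E ≤ Subgroup.centralizer (R : Set G)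
  · rw [show E0 = E from inf_eq_left.2 hER0]
    exact Nat.mul_le_mul_left _ (Nat.card_le_card_of_injective (fun v => (v : V)) Subtype.val_injective)
  have hcomm : ∀ a ∈ E, ∀ b ∈ E, a * b = b * a := fun a ha b hb => Lib.Thompson.commute_of_elementary hE ha hb
  -- a hyperplane centralizing something moved by `E`
  obtain ⟨H, ⟨hHE, hHC⟩, hHmax⟩ : ∃ H : Subgroup G,
      (H ≤ E ∧ ¬ R ⊓ Subgroup.centralizer (H : Set G) ≤ Subgroup.centralizer (E : Set G)) ∧
      ∀ K : Subgroup G, (K ≤ E ∧ ¬ R ⊓ Subgroup.centralizer (K : Set G) ≤ Subgroup.centralizer (E : Set G)) → H ≤ K → K ≤ H := by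
    obtain ⟨H, hH, hmax⟩ := (Set.toFinite {K : Subgroup G | K ≤ E ∧
        ¬ R ⊓ Subgroup.centralizer (K : Set G) ≤ Subgroup.centralizer (E : Set G)}).exists_maximal
      ⟨⊥, bot_le, fun h => hER0 (Subgroup.le_centralizer_iff.1 (fun r hr => h ⟨hr, by simp [Subgroup.mem_centralizer_iff]⟩))⟩
    exact ⟨H, hH, fun K hK h => hmax hK h⟩
  have hHne : H ≠ E := fun h => hHC (h ▸ inf_le_right)
  obtain ⟨e, heE, heH⟩ := SetLike.exists_of_lt (lt_of_le_of_ne hHE hHne)
  have hmax' : ∀ a ∈ E, a ∉ H → ∀ c ∈ R, (∀ h ∈ H, h * c = c * h) → a * c = c * a →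
      c ∈ Subgroup.centralizer (E : Set G) := by
    intro a ha haH c hc hcH hac
    by_contra hcE
    refine haH (hHmax (H ⊔ Subgroup.zpowers a) ⟨sup_le hHE (Subgroup.zpowers_le.2 ha), fun h => hcE (h ⟨hc, ?_⟩)⟩
      le_sup_left (Subgroup.mem_sup_right (Subgroup.mem_zpowers a)))
    have hle : H ⊔ Subgroup.zpowers a ≤ Subgroup.centralizer ({c} : Set G) :=
      sup_le (fun h hh => Subgroup.mem_centralizer_singleton_iff.2 (hcH h hh))
        (Subgroup.zpowers_le.2 (Subgroup.mem_centralizer_singleton_iff.2 hac))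
    exact fun h hh => Subgroup.mem_centralizer_singleton_iff.1 (hle hh)
  set C := R ⊓ Subgroup.centralizer (H : Set G) with hC
  have hEC : E ≤ Subgroup.normalizer (C : Set G) := by
    refine fun a ha => (inf_le_inf_left _ le_rfl).trans Subgroup.inf_normalizer_le_normalizer_inf ⟨hER ha, ?_⟩
    exact Lib.Coprime.normalizer_le_normalizer_centralizer H
      (Subgroup.centralizer_le_normalizer _ (Subgroup.mem_centralizer_iff.2 fun h hh => hcomm h (hHE hh) a ha))
  have hgen : E ≤ H ⊔ Subgroup.zpowers e := by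
    intro e' he'
    by_contra hne
    have he'H : e' ∉ H := fun h => hne (Subgroup.mem_sup_left h)
    have hee'H : e * e' ∉ H := fun h => hne (by
      have := mul_mem (inv_mem (Subgroup.mem_sup_right (Subgroup.mem_zpowers e) : e ∈ H ⊔ Subgroup.zpowers e))
        (Subgroup.mem_sup_left h : e * e' ∈ H ⊔ Subgroup.zpowers e)
      rwa [inv_mul_cancel_left] at this)
    set B := Subgroup.zpowers e ⊔ Subgroup.zpowers e' with hB
    have he2 : e ^ 2 = 1 := hE.2 e heE
    have he2' : e' ^ 2 = 1 := hE.2 e' he'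
    have hBE : B ≤ E := sup_le (Subgroup.zpowers_le.2 heE) (Subgroup.zpowers_le.2 he')
    have hpow : ∀ a : G, a ^ 2 = 1 → ∀ z ∈ Subgroup.zpowers a, z = 1 ∨ z = a := by
      intro a ha z hz
      obtain ⟨k, rfl⟩ := Subgroup.mem_zpowers_iff.1 hz
      rcases Int.even_or_odd' k with ⟨m, rfl | rfl⟩
      · left; rw [zpow_mul, zpow_ofNat, ha, one_zpow]
      · right; rw [zpow_add, zpow_mul, zpow_ofNat, ha, one_zpow, one_mul, zpow_one]
    have hBmem : ∀ z ∈ B, z = 1 ∨ z = e ∨ z = e' ∨ z = e * e' := by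
      intro z hz
      have hnz : Subgroup.zpowers e' ≤ Subgroup.normalizer ((Subgroup.zpowers e : Subgroup G) : Set G) :=
        Subgroup.zpowers_le.2 (Subgroup.centralizer_le_normalizer _ (Subgroup.mem_centralizer_iff.2 fun y hy =>
          hcomm y (Subgroup.zpowers_le.2 heE hy) e' he'))
      rw [hB, ← SetLike.mem_coe, Subgroup.coe_mul_of_right_le_normalizer_left _ _ hnz] at hz
      obtain ⟨p, hp, q, hq, rfl⟩ := hz
      rcases hpow e he2 p hp with rfl | rfl <;> rcases hpow e' he2' q hq with rfl | rfl <;> simp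
    have hBcard : Nat.card B = 2 ^ 2 := by
      have h := Lib.Coprime.card_sup_mul_card_inf_of_le_normalizer (A := Subgroup.zpowers e') (N := Subgroup.zpowers e)
        (Subgroup.zpowers_le.2 (Subgroup.centralizer_le_normalizer _ (Subgroup.mem_centralizer_iff.2 fun y hy =>
          hcomm y (Subgroup.zpowers_le.2 heE hy) e' he')))
      have h1 : Subgroup.zpowers e' ⊓ Subgroup.zpowers e = ⊥ := by
        rw [eq_bot_iff]
        rintro z ⟨hz', hz⟩
        rcases hpow e' he2' z hz' with rfl | rfl
        · exact Subgroup.one_mem _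
        · exact absurd (Subgroup.mem_sup_right hz) hne
      rw [h1, Subgroup.card_bot, mul_one, Nat.card_zpowers, Nat.card_zpowers,
        orderOf_eq_prime he2 (fun h => heH (h ▸ H.one_mem)),
        orderOf_eq_prime he2' (fun h => he'H (h ▸ H.one_mem))] at h
      rw [sup_comm] at h
      rw [hB, h]; norm_num
    have hCC := Lib.Coprime.fixGen_eq_of_elementary (B := B) (K := C) Nat.prime_two
      (fun x hx y hy => hcomm x (hBE hx) y (hBE hy)) (fun x hx => hE.2 x (hBE hx)) hBcard
      (hBE.trans hEC) (by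
        rw [hBcard]
        exact Nat.Coprime.pow_left 2 (Nat.coprime_two_left.2 (hR.of_dvd_nat (Subgroup.card_dvd_of_le inf_le_left))))
    refine hHC (hCC.ge.trans (iSup₂_le fun a ha => fun c hc => ?_))
    have hcH : ∀ h ∈ H, h * c = c * h := Subgroup.mem_centralizer_iff.1 hc.1.2
    have hac : a * c = c * a := (Subgroup.mem_centralizer_singleton_iff.1 hc.2).symm
    rcases hBmem a ha.1 with rfl | rfl | rfl | rfl
    · exact absurd rfl ha.2
    · exact hmax' _ heE heH c hc.1.1 hcH hac
    · exact hmax' _ he' he'H c hc.1.1 hcH hac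
    · exact hmax' _ (mul_mem heE he') hee'H c hc.1.1 hcH hac
  -- an element of `C` inverted by `e`
  obtain ⟨x₀, hx₀, hx₀E⟩ := SetLike.not_le_iff_exists.1 hHC
  set x := x₀⁻¹ * (e * x₀ * e⁻¹) with hx
  have hee : e * e = 1 := by rw [← pow_two]; exact hE.2 e heE
  have hei : e⁻¹ = e := inv_eq_of_mul_eq_one_right hee
  have hxC : x ∈ C := mul_mem (inv_mem hx₀) ((Subgroup.mem_normalizer_iff.1 (hEC heE) x₀).1 hx₀)
  have hxne : x ≠ 1 := by
    intro h
    rw [hx, inv_mul_eq_one, eq_mul_inv_iff_mul_eq] at h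
    exact hx₀E (hmax' e heE heH x₀ hx₀.1 (Subgroup.mem_centralizer_iff.1 hx₀.2) h.symm)
  have hex : e * x * e⁻¹ = x⁻¹ := by
    rw [hx, mul_inv_rev, mul_inv_rev, inv_inv, mul_inv_rev, inv_inv]
    simp only [hei, mul_assoc, hee, mul_one]
  have hodd : Odd (orderOf x) := hR.of_dvd_nat (Subgroup.orderOf_dvd_natCard R hxC.1)
  -- `x` moves a fixed point of `H`
  have hHp : IsPGroup 2 H := (Lib.Thompson.isPGroup_of_elementary hE).to_le hHE
  obtain ⟨v, hv⟩ : ∃ v : V, x • v ≠ v := by
    by_contra h; push Not at h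
    exact hxne (eq_of_smul_eq_smul (α := V) fun v => by rw [h v, one_smul])
  let nx : V →+ V :=
    { toFun := fun v => x • v + v
      map_zero' := by rw [smul_zero, add_zero]
      map_add' := fun a b => by rw [smul_add, add_add_add_comm] }
  have hHx : ∀ h ∈ H, ∀ u : V, h • x • u = x • h • u := fun h hh u => by
    rw [← mul_smul, Subgroup.mem_centralizer_iff.1 hxC.2 h hh, mul_smul]
  letI : MulAction H nx.range :=
    { smul := fun h w => ⟨(h : G) • (w : V), by
        obtain ⟨u, hu⟩ := w.2
        refine ⟨(h : G) • u, ?_⟩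
        show x • (h : G) • u + (h : G) • u = _
        rw [← hHx h h.2 u, ← smul_add]; exact congrArg _ hu⟩
      one_smul := fun w => Subtype.ext (one_smul G (w : V))
      mul_smul := fun a b w => Subtype.ext (mul_smul (a : G) (b : G) (w : V)) }
  obtain ⟨w, hwH, hw0⟩ : ∃ w : nx.range, (∀ h ∈ H, h • (w : V) = w) ∧ (w : V) ≠ 0 := by
    have h0 : (0 : nx.range) ∈ MulAction.fixedPoints H nx.range := fun h => Subtype.ext (smul_zero (h : G))
    have hdvd : 2 ∣ Nat.card nx.range := by
      have hne : x • v + v ≠ 0 := fun h => hv (by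
        have := congrArg (fun t => t + v) h
        simpa only [add_add_self h2, zero_add] using this)
      have ho : addOrderOf (⟨x • v + v, v, rfl⟩ : nx.range) = 2 := by
        haveI : Fact (Nat.Prime 2) := ⟨Nat.prime_two⟩
        refine addOrderOf_eq_prime ?_ fun h => hne (congrArg Subtype.val h)
        exact Subtype.ext (by rw [two_nsmul]; exact h2 _)
      exact ho ▸ addOrderOf_dvd_natCard _
    haveI : Fact (Nat.Prime 2) := ⟨Nat.prime_two⟩
    obtain ⟨w, hw, hne⟩ := hHp.exists_fixed_point_of_prime_dvd_card_of_fixed_point nx.range hdvd h0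
    exact ⟨w, fun h hh => congrArg Subtype.val (hw ⟨h, hh⟩), fun h => hne (Subtype.ext h.symm)⟩
  have hxw : x • (w : V) ≠ w := by
    intro hfix
    obtain ⟨u, hu⟩ := w.2
    have hu' : x • u + u = (w : V) := hu
    have hxu : x • u = u + (w : V) := by rw [← hu', add_comm (x • u), ← add_assoc, h2, zero_add]
    have hpow : ∀ n : ℕ, x ^ n • u = u + n • (w : V) := by
      intro n
      induction n with
      | zero => rw [pow_zero, one_smul, zero_nsmul, add_zero]
      | succ n ih => rw [pow_succ', mul_smul, ih, smul_add, smul_comm x n (w : V), hfix, hxu, succ_nsmul', add_assoc]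
    have h := hpow (orderOf x)
    rw [pow_orderOf_eq_one, one_smul, left_eq_add] at h
    obtain ⟨k, hk⟩ := hodd
    rw [hk, succ_nsmul, mul_comm, mul_nsmul', two_nsmul, h2, smul_zero, zero_add] at h
    exact hw0 h
  set S := fix H (⊤ : AddSubgroup V) with hS
  have hSe : ∀ u ∈ S, e • u ∈ S := fun u hu => ⟨AddSubgroup.mem_top _, fun h hh => by
    rw [← mul_smul, hcomm h (hHE hh) e heE, mul_smul, hu.2 h hh]⟩
  have hSx : ∀ u ∈ S, x • u ∈ S := fun u hu => ⟨AddSubgroup.mem_top _, fun h hh => by rw [hHx h hh, hu.2 h hh]⟩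
  have h4 : 4 * Nat.card (fix E (⊤ : AddSubgroup V)) ≤ Nat.card S := by
    let ne : S →+ V :=
      { toFun := fun u => e • (u : V) + (u : V)
        map_zero' := by rw [ZeroMemClass.coe_zero, smul_zero, add_zero]
        map_add' := fun a b => by rw [AddSubgroup.coe_add, smul_add, add_add_add_comm] }
    have hker : Nat.card ne.ker = Nat.card (fix E (⊤ : AddSubgroup V)) := by
      have hsub : ∀ u : V, e • u + u = 0 → e • u = u := fun u h => by
        have := congrArg (fun t => t + u) h
        simpa only [add_add_self h2, zero_add] using this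
      refine Nat.card_congr
        { toFun := fun u => ⟨((u : S) : V), AddSubgroup.mem_top _, fun a ha => ?_⟩
          invFun := fun u => ⟨⟨(u : V), AddSubgroup.mem_top _, fun a ha => u.2.2 a (hHE ha)⟩, ?_⟩
          left_inv := fun _ => rfl
          right_inv := fun _ => rfl }
      · have ha' := hgen ha
        revert ha'
        refine fun ha' => sup_induction (p := fun g => g • ((u : S) : V) = ((u : S) : V)) (u : S).2.2 ?_ ?_ ha'
        · intro b hb
          obtain ⟨k, rfl⟩ := Subgroup.mem_zpowers_iff.1 hb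
          exact (MulAction.stabilizer G ((u : S) : V)).zpow_mem (hsub _ u.2) k
        · intro g g' _ _ hg hg'; rw [mul_smul, hg', hg]
      · show e • (u : V) + (u : V) = 0
        rw [u.2.2 e heE, h2]
    have hcard := ne.ker.card_mul_index
    rw [AddSubgroup.index_ker, hker] at hcard
    by_contra hlt
    have hr : Nat.card ne.range < 4 := by
      by_contra h; push Not at h
      exact hlt (by rw [← hcard, mul_comm 4]; exact Nat.mul_le_mul_left _ h)
    refine hno (plane_of_transvection h2 hee hex hodd hSe hSx ?_ ⟨w, ⟨AddSubgroup.mem_top _, hwH⟩, hxw⟩)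
    intro u hu u' hu' hne hne'
    by_contra hdiff
    let f : Fin 4 → ne.range := ![0, ⟨_, ⟨⟨u, hu⟩, rfl⟩⟩, ⟨_, ⟨⟨u', hu'⟩, rfl⟩⟩, ⟨_, ⟨⟨u, hu⟩ + ⟨u', hu'⟩, rfl⟩⟩]
    have hf : Function.Injective f := by
      have hval : ∀ i, ((f i : ne.range) : V) = ![0, e • u + u, e • u' + u', (e • u + u) + (e • u' + u')] i := by
        intro i; fin_cases i
        · rfl
        · rfl
        · rfl
        · exact map_add ne ⟨u, hu⟩ ⟨u', hu'⟩
      intro i j h
      have h' := congrArg Subtype.val h
      rw [hval, hval] at h'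
      have hsum : (e • u + u) + (e • u' + u') ≠ 0 := fun h => hdiff (by
        have := congrArg (fun t => t + (e • u' + u')) h
        simpa only [add_add_self h2, zero_add] using this)
      fin_cases i <;> fin_cases j <;> simp at h' ⊢ <;>
        first | exact hne h' | exact hne h'.symm | exact hne' h' | exact hne' h'.symm | exact hdiff h' |
          exact hdiff h'.symm | exact hsum h' | exact hsum h'.symm
    have := Nat.card_le_card_of_injective f hf
    rw [Nat.card_fin] at this
    omega
  have hcardE : Nat.card E ≤ 2 * Nat.card H := by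
    have hnz : Subgroup.zpowers e ≤ Subgroup.normalizer (H : Set G) := Subgroup.zpowers_le.2
      (Subgroup.centralizer_le_normalizer _ (Subgroup.mem_centralizer_iff.2 fun h hh => hcomm h (hHE hh) e heE))
    have h := Lib.Coprime.card_sup_mul_card_inf_of_le_normalizer (A := Subgroup.zpowers e) (N := H) hnz
    rw [Nat.card_zpowers, orderOf_eq_prime (hE.2 e heE) (fun h => heH (h ▸ H.one_mem)), sup_comm] at h
    have hle := Subgroup.card_le_of_le hgen
    have hpos : 0 < Nat.card ↥(Subgroup.zpowers e ⊓ H) := Nat.card_pos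
    nlinarith
  have hIH := ih H (lt_of_le_of_ne hHE hHne) (Lib.Thompson.isElementaryAbelian_le hE hHE) (hHE.trans hER)
  have hH0 : Nat.card ↥(H ⊓ Subgroup.centralizer (R : Set G)) ≤ Nat.card E0 :=
    Subgroup.card_le_of_le (inf_le_inf_right _ hHE)
  calc Nat.card E * Nat.card E * Nat.card (fix E (⊤ : AddSubgroup V))
      ≤ 2 * Nat.card H * (2 * Nat.card H) * Nat.card (fix E (⊤ : AddSubgroup V)) :=
        Nat.mul_le_mul_right _ (Nat.mul_le_mul hcardE hcardE)
    _ = Nat.card H * Nat.card H * (4 * Nat.card (fix E (⊤ : AddSubgroup V))) := by ring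
    _ ≤ Nat.card H * Nat.card H * Nat.card S := Nat.mul_le_mul_left _ h4
    _ ≤ _ := hIH
    _ ≤ _ := Nat.mul_le_mul_right _ (Nat.mul_le_mul hH0 hH0)

end Cfsg.Agent.Lib.QuadPair
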