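import Cfsg.Agent.Lib.QuadPair.Best

/-!
The main lemma on pairs of quadratic best offenders.
-/

set_option autoImplicit false

namespace Cfsg.Agent.Lib.QuadPair

variable {G : Type*} [Group G] [Finite G] {V : Type*} [AddCommGroup V] [DistribMulAction G V] [Finite V]

/-- A plane on which two elements induce a symmetric group of degree three. -/
def HasPlane (G : Type*) [Group G] (V : Type*) [AddCommGroup V] [DistribMulAction G V] : Prop :=
  ∃ c b : G, ∃ w y : V, w ≠ 0 ∧ y ≠ 0 ∧ y ≠ w ∧ c • w = w ∧ c • y = w + y ∧ b • w = w + y ∧ b • y = y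

/-- The recursion hypothesis. -/
def Below (G : Type*) [Group G] (V : Type*) [AddCommGroup V] [DistribMulAction G V]
    (W : AddSubgroup V) (H : Subgroup G) : Prop :=
  ∀ (W' : AddSubgroup V) (A' B' : Subgroup G),
    (W' < W ∨ (W' = W ∧ A' ⊔ B' < H)) → IsPGroup 2 A' → IsPGroup 2 B' → Inv (A' ⊔ B') W' →
      Best A' W' → Best B' W' → ¬ Uni (A' ⊔ B') W' → HasPlane G V

theorem step (h2 : ∀ v : V, v + v = 0) (hP : Quadratic G V) {W : AddSubgroup V} {A B : Subgroup G}
    (hA : IsPGroup 2 A) (hB : IsPGroup 2 B) (hW : Inv (A ⊔ B) W) (hbA : Best A W) (hbB : Best B W)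
    (hn : ¬ Uni (A ⊔ B) W) (hle : Nat.card B * Nat.card (ker A W) ≤ Nat.card A * Nat.card (ker B W))
    (hrec : Below G V W (A ⊔ B)) : HasPlane G V := by
  classical
  set H := A ⊔ B with hH
  have hAH : A ≤ H := le_sup_left
  have hBH : B ≤ H := le_sup_right
  have hsub : ∀ W' : AddSubgroup V, W' < W → Inv H W' → Uni H W' ∨ HasPlane G V := by
    intro W' hW' hi
    by_cases hu : Uni H W'
    · exact Or.inl hu
    · exact Or.inr (hrec W' A B (Or.inl hW') hA hB hi (hbA.restrict hW'.le) (hbB.restrict hW'.le) hu)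
  by_contra hno
  have hsub' : ∀ W' : AddSubgroup V, W' < W → Inv H W' → Uni H W' := fun W' h1 h2' =>
    (hsub W' h1 h2').resolve_right hno
  -- displacements generate `W`
  have hgen : AddSubgroup.closure {z | ∃ h ∈ H, ∃ w ∈ W, z = h • w + w} = W := by
    set W0 := AddSubgroup.closure {z | ∃ h ∈ H, ∃ w ∈ W, z = h • w + w}
    have hle0 : W0 ≤ W := (AddSubgroup.closure_le _).2 (by
      rintro _ ⟨h, hh, w, hw, rfl⟩; exact W.add_mem (hW h hh w hw) hw)
    by_contra hne
    have hinv : Inv H W0 := by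
      intro g hg z hz
      induction hz using AddSubgroup.closure_induction with
      | mem x hx =>
        obtain ⟨h, hh, w, hw, rfl⟩ := hx
        have e : g • (h • w + w) = ((g * h) • w + w) + (g • w + w) := by
          rw [smul_add, mul_smul, add_add_add_comm, h2, add_zero]
        rw [e]
        exact add_mem (AddSubgroup.subset_closure ⟨_, mul_mem hg hh, w, hw, rfl⟩)
          (AddSubgroup.subset_closure ⟨g, hg, w, hw, rfl⟩)
      | zero => rw [smul_zero]; exact zero_mem _
      | add x y _ _ hx hy => rw [smul_add]; exact add_mem hx hy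
      | neg x _ hx => rw [smul_neg]; exact neg_mem hx
    have hu := hsub' W0 (lt_of_le_of_ne hle0 hne) hinv
    apply hn
    intro h hh
    obtain ⟨k, hk⟩ := hu h hh
    exact ⟨k + 1, fun w hw => pow_fix h2 hk (AddSubgroup.subset_closure ⟨_, pow_mem hh _, w, hw, rfl⟩)⟩
  -- a maximal invariant subgroup
  obtain ⟨M, ⟨hMW, hMinv⟩, hMmax⟩ : ∃ M : AddSubgroup V, (M < W ∧ Inv H M) ∧
      ∀ N : AddSubgroup V, N < W ∧ Inv H N → M ≤ N → N ≤ M := by
    have hWne : (⊥ : AddSubgroup V) < W := bot_lt_iff_ne_bot.2 fun e => hn fun h _ =>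
      ⟨0, fun w hw => by rw [e, AddSubgroup.mem_bot] at hw; rw [hw, smul_zero]⟩
    obtain ⟨M, hM, hmax⟩ := (Set.toFinite {N : AddSubgroup V | N < W ∧ Inv H N}).exists_maximal
      ⟨⊥, hWne, fun h _ w hw => by rw [AddSubgroup.mem_bot.1 hw, smul_zero]; exact zero_mem _⟩
    exact ⟨M, hM, fun N hN hle' => hmax hN hle'⟩
  have hMu : Uni H M := hsub' M hMW hMinv
  -- the centralizers modulo `M`
  let cen : Subgroup G → AddSubgroup V := fun D =>
    { carrier := {w | w ∈ W ∧ ∀ d ∈ D, d • w + w ∈ M}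
      zero_mem' := ⟨W.zero_mem, fun d _ => by rw [smul_zero, add_zero]; exact M.zero_mem⟩
      add_mem' := fun {a b} ha hb => ⟨W.add_mem ha.1 hb.1, fun d hd => by
        rw [smul_add, add_add_add_comm]; exact M.add_mem (ha.2 d hd) (hb.2 d hd)⟩
      neg_mem' := fun {a} ha => ⟨W.neg_mem ha.1, fun d hd => by
        rw [smul_neg, ← neg_add]; exact M.neg_mem (ha.2 d hd)⟩ }
  have hMcen : ∀ D ≤ H, M ≤ cen D := fun D hD w hw =>
    ⟨hMW.le hw, fun d hd => M.add_mem (hMinv d (hD hd) w hw) hw⟩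
  have hcenH : cen H = M := by
    have hinv : Inv H (cen H) := fun h hh w hw => by
      rw [show h • w = (h • w + w) + w from (add_add_self h2 _ w).symm]
      exact add_mem (hMcen H le_rfl (hw.2 h hh)) hw
    rcases eq_or_lt_of_le (show cen H ≤ W from fun w hw => hw.1) with e | e
    · refine absurd (fun h hh => ?_) hn
      obtain ⟨k, hk⟩ := hMu h hh
      refine ⟨k + 1, fun w hw => pow_fix h2 hk ?_⟩
      exact (show w ∈ cen H from e.symm ▸ hw).2 _ (pow_mem hh _)
    · exact le_antisymm (hMmax _ ⟨e, hinv⟩ (hMcen H le_rfl)) (hMcen H le_rfl)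
  have hinf : cen A ⊓ cen B ≤ M := by
    rintro w ⟨hwA, hwB⟩
    rw [← hcenH]
    refine ⟨hwA.1, fun h hh => ?_⟩
    refine sup_induction (p := fun h => h • w + w ∈ M) hwA.2 hwB.2 ?_ hh
    intro g j hg _ hg' hj'
    have e : (g * j) • w + w = g • (j • w + w) + (g • w + w) := by
      rw [smul_add, mul_smul, ← add_assoc, add_add_self h2]
    rw [e]
    exact M.add_mem (hMinv g hg _ hj') hg'
  -- the centralizer of `A` modulo `M` is small
  have hfixcen : ∀ D ≤ H, fix D W ≤ cen D := fun D hD w hw =>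
    ⟨hw.1, fun d hd => by rw [hw.2 d hd, h2]; exact M.zero_mem⟩
  have hsmall : Nat.card (cen A) * Nat.card (ker A W) ≤ Nat.card A * Nat.card M := by
    have h1 := card_sup_mul_card_inf (cen A) (cen B)
    have h3 : Nat.card (cen A) * Nat.card (cen B) ≤ Nat.card W * Nat.card M := by
      rw [← h1]
      exact Nat.mul_le_mul (AddSubgroup.card_le_of_le (sup_le (fun w hw => hw.1) (fun w hw => hw.1)))
        (AddSubgroup.card_le_of_le hinf)
    have h4 : Nat.card (ker B W) * Nat.card W ≤ Nat.card B * Nat.card (cen B) :=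
      hbB.offender.trans (Nat.mul_le_mul_left _ (AddSubgroup.card_le_of_le (hfixcen B hBH)))
    have h5 : Nat.card (cen A) * Nat.card (ker B W) ≤ Nat.card B * Nat.card M := by
      refine Nat.le_of_mul_le_mul_right ?_ (Nat.card_pos (α := ↥W))
      calc Nat.card (cen A) * Nat.card (ker B W) * Nat.card W
          = Nat.card (cen A) * (Nat.card (ker B W) * Nat.card W) := by ring
        _ ≤ Nat.card (cen A) * (Nat.card B * Nat.card (cen B)) := Nat.mul_le_mul_left _ h4
        _ = Nat.card B * (Nat.card (cen A) * Nat.card (cen B)) := by ring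
        _ ≤ Nat.card B * (Nat.card W * Nat.card M) := Nat.mul_le_mul_left _ h3
        _ = Nat.card B * Nat.card M * Nat.card W := by ring
    refine Nat.le_of_mul_le_mul_right ?_ (Nat.card_pos (α := ↥(ker B W)))
    calc Nat.card (cen A) * Nat.card (ker A W) * Nat.card (ker B W)
        = Nat.card (ker A W) * (Nat.card (cen A) * Nat.card (ker B W)) := by ring
      _ ≤ Nat.card (ker A W) * (Nat.card B * Nat.card M) := Nat.mul_le_mul_left _ h5
      _ = Nat.card B * Nat.card (ker A W) * Nat.card M := by ring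
      _ ≤ Nat.card A * Nat.card (ker B W) * Nat.card M := Nat.mul_le_mul_right _ hle
      _ = Nat.card A * Nat.card M * Nat.card (ker B W) := by ring
  -- the vector `u`
  have hqA : ∀ s ∈ A, ∀ t ∈ A, ∀ v : V, s • (t • v + v) = t • v + v := hP A hA
  have hqB : ∀ s ∈ B, ∀ t ∈ B, ∀ v : V, s • (t • v + v) = t • v + v := hP B hB
  obtain ⟨u, huA, huM⟩ : ∃ u, u ∈ cen A ∧ u ∉ M := by
    obtain ⟨w, hwW, hwM⟩ := SetLike.exists_of_lt hMW
    by_cases h : ∀ a ∈ A, a • w + w ∈ M
    · exact ⟨w, ⟨hwW, h⟩, hwM⟩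
    · push Not at h
      obtain ⟨a, ha, haw⟩ := h
      exact ⟨a • w + w, hfixcen A hAH ⟨W.add_mem (hW a (hAH ha) w hwW) hwW, fun d hd => hqA d hd a ha w⟩, haw⟩
  have huB : u ∉ cen B := fun h => huM (hinf ⟨huA, h⟩)
  obtain ⟨b, hb, hbu⟩ : ∃ b ∈ B, b • u + u ∉ M := by
    by_contra h
    push Not at h
    exact huB ⟨huA.1, h⟩
  obtain ⟨y, hy⟩ : ∃ y, y = b • u + u := ⟨_, rfl⟩
  rw [← hy] at hbu
  have hyW : y ∈ W := by rw [hy]; exact W.add_mem (hW b (hBH hb) u huA.1) huA.1
  have hyB : ∀ b' ∈ B, b' • y = y := fun b' hb' => by rw [hy]; exact hqB b' hb' b hb u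
  let iM : AddSubgroup V := M
  let f : A →* Multiplicative (V ⧸ iM) := MonoidHom.mk' (fun a => Multiplicative.ofAdd (QuotientAddGroup.mk' iM ((a : G) • y + y))) (by
    intro a a'
    rw [← ofAdd_add, ← map_add]
    congr 2
    have h := hqA (a : G) a.2 (a' : G) a'.2 y
    rw [smul_add] at h
    rw [Subgroup.coe_mul, mul_smul]
    calc (a : G) • (a' : G) • y + y
        = ((a : G) • (a' : G) • y + (a : G) • y) + ((a : G) • y + y) := by
          rw [← add_assoc, add_add_self h2]
      _ = _ := by rw [h, add_comm])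
  have hfker : ∀ a : A, a ∈ f.ker ↔ (a : G) • y + y ∈ M := fun a => by
    rw [MonoidHom.mem_ker]
    show Multiplicative.ofAdd _ = 1 ↔ _
    rw [ofAdd_eq_one]
    exact QuotientAddGroup.eq_zero_iff _
  set D : Subgroup G := f.ker.map A.subtype with hD
  have hDA : D ≤ A := Subgroup.map_subtype_le _
  have hDy : ∀ d ∈ D, d • y + y ∈ M := by
    rintro _ ⟨a, ha, rfl⟩; exact (hfker a).1 ha
  by_cases hDK : ∀ d ∈ D, d ∈ ker A W
  swap
  · -- recursion to the stabilizer of `y`
    push Not at hDK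
    obtain ⟨d₀, hd₀, hd₀K⟩ := hDK
    have hH' : D ⊔ B ≤ H := sup_le (hDA.trans hAH) hBH
    have hlt : D ⊔ B < H := by
      refine lt_of_le_of_ne hH' fun e => hbu ?_
      rw [← hcenH]
      refine ⟨hyW, fun h hh => ?_⟩
      rw [← e] at hh
      refine sup_induction (p := fun h => h • y + y ∈ M) hDy (fun b' hb' => by rw [hyB b' hb', h2]; exact M.zero_mem) ?_ hh
      intro g j hg _ hg' hj'
      have e' : (g * j) • y + y = g • (j • y + y) + (g • y + y) := by
        rw [smul_add, mul_smul, ← add_assoc, add_add_self h2]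
      rw [e']
      exact M.add_mem (hMinv g (hH' hg) _ hj') hg'
    have hnu : ¬ Uni (D ⊔ B) W := by
      intro hu
      have hq := hu.quad hP (hW.mono hH')
      apply hd₀K
      refine ⟨hDA hd₀, fun w hw => ?_⟩
      have h0 : ∀ h ∈ H, ∀ w ∈ W, d₀ • (h • w + w) = h • w + w := by
        intro h hh
        refine sup_induction (p := fun h => ∀ w ∈ W, d₀ • (h • w + w) = h • w + w)
          (fun a ha w _ => hqA d₀ (hDA hd₀) a ha w)
          (fun b' hb' w hw => hq d₀ (Subgroup.mem_sup_left hd₀) b' (Subgroup.mem_sup_right hb') w hw) ?_ hh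
        intro g j _ hj hg' hj' w hw
        have e' : (g * j) • w + w = (g • (j • w) + j • w) + (j • w + w) := by
          rw [mul_smul, ← add_assoc, add_add_self h2]
        rw [e', smul_add, hg' _ (hW j hj w hw), hj' w hw]
      rw [← hgen] at hw
      induction hw using AddSubgroup.closure_induction with
      | mem x hx => obtain ⟨h, hh, v, hv, rfl⟩ := hx; exact h0 h hh v hv
      | zero => exact smul_zero _
      | add x z _ _ hx hz => rw [smul_add, hx, hz]
      | neg x _ hx => rw [smul_neg, hx]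
    obtain ⟨d, hd, hdn⟩ : ∃ d ∈ D, ¬ Uni (B ⊔ B.map (MulAut.conj d).toMonoidHom) W := by
      by_contra hcon
      push Not at hcon
      apply hnu
      have hDB : ∀ d ∈ D, ∀ b₁ ∈ B, ∀ b₂ ∈ B, ∀ w ∈ W,
          b₁ • (d • (b₂ • w + w) + (b₂ • w + w)) = d • (b₂ • w + w) + (b₂ • w + w) := by
        intro d hd b₁ hb₁ b₂ hb₂ w hw
        have hle2 : B ⊔ B.map (MulAut.conj d).toMonoidHom ≤ H := sup_le hBH (by
          rintro _ ⟨x, hx, rfl⟩
          exact mul_mem (mul_mem (hAH (hDA hd)) (hBH hx)) (inv_mem (hAH (hDA hd))))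
        have h := (hcon d hd).quad hP (hW.mono hle2) b₁ (Subgroup.mem_sup_left hb₁)
          (d * b₂ * d⁻¹) (Subgroup.mem_sup_right ⟨b₂, hb₂, rfl⟩) (d • w) (hW d (hAH (hDA hd)) w hw)
        rw [mul_smul, mul_smul, inv_smul_smul, ← smul_add] at h
        rw [smul_add, hqB b₁ hb₁ b₂ hb₂ w, h]
      refine uni_of_words h2 (hW.mono (hDA.trans hAH)) (hW.mono hBH) ?_
      have hDD : ∀ s ∈ D, ∀ t ∈ D, ∀ v : V, s • (t • v + v) = t • v + v :=
        fun s hs t ht => hqA s (hDA hs) t (hDA ht)
      have hz : ∀ (s : G), s • (0 : V) + 0 = 0 := fun s => by rw [smul_zero, add_zero]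
      intro s₁ hs₁ s₂ hs₂ s₃ hs₃ s₄ hs₄ w hw
      have hm : ∀ s ∈ (D : Set G) ∪ B, ∀ v ∈ W, s • v + v ∈ W := fun s hs v hv =>
        W.add_mem (hW s (hs.elim (fun h => hAH (hDA h)) (fun h => hBH h)) v hv) hv
      have hsame : ∀ (s t : G), ((s ∈ D ∧ t ∈ D) ∨ (s ∈ B ∧ t ∈ B)) → ∀ v : V,
          s • (t • v + v) + (t • v + v) = 0 := by
        rintro s t (⟨hs, ht⟩ | ⟨hs, ht⟩) v
        · rw [hDD s hs t ht, h2]
        · rw [hqB s hs t ht, h2]
      rcases hs₁ with h1 | h1 <;> rcases hs₂ with h2' | h2'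
      · rw [hsame s₂ s₁ (Or.inl ⟨h2', h1⟩) w, hz, hz]
      · rcases hs₃ with h3 | h3
        · rcases hs₄ with h4 | h4
          · rw [hsame s₄ s₃ (Or.inl ⟨h4, h3⟩)]
          · rw [hDB s₃ h3 s₄ h4 s₂ h2' _ (hm s₁ (Or.inl h1) w hw), h2]
        · rw [hsame s₃ s₂ (Or.inr ⟨h3, h2'⟩), hz]
      · rcases hs₃ with h3 | h3
        · rw [hsame s₃ s₂ (Or.inl ⟨h3, h2'⟩), hz]
        · rw [hDB s₂ h2' s₃ h3 s₁ h1 w hw, h2, hz]
      · rw [hsame s₂ s₁ (Or.inr ⟨h2', h1⟩) w, hz, hz]
    have hdH : d ∈ D ⊔ B := Subgroup.mem_sup_left hd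
    have hB'le : B ⊔ B.map (MulAut.conj d).toMonoidHom ≤ D ⊔ B := sup_le le_sup_right (by
      rintro _ ⟨x, hx, rfl⟩
      exact mul_mem (mul_mem hdH (Subgroup.mem_sup_right hx)) (inv_mem hdH))
    refine hno (hrec W B _ (Or.inr ⟨rfl, lt_of_le_of_lt hB'le hlt⟩) hB (hB.map _)
      (hW.mono (hB'le.trans hH')) hbB (hbB.conj fun w => ⟨fun hw => ?_, fun hw => hW d (hH' hdH) w hw⟩) hdn)
    simpa using hW d⁻¹ (inv_mem (hH' hdH)) _ hw
  -- the map `a ↦ [y, a]` is onto
  haveI : Finite (V ⧸ iM) := inferInstance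
  let T : AddSubgroup (V ⧸ iM) := (cen A).map (QuotientAddGroup.mk' iM)
  have hrange : ∀ a : A, Multiplicative.toAdd (f a) ∈ T := fun a =>
    AddSubgroup.mem_map_of_mem _ (hfixcen A hAH ⟨W.add_mem (hW a (hAH a.2) y hyW) hyW, fun d hd => hqA d hd a a.2 y⟩)
  have hkerle : Nat.card f.ker ≤ Nat.card (ker A W) := by
    refine Nat.card_le_card_of_injective (fun a => ⟨((a : A) : G), hDK _ ⟨(a : A), a.2, rfl⟩⟩) fun a a' h => ?_
    exact Subtype.ext (Subtype.ext (congrArg (fun x : ker A W => (x : G)) h))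
  have hT : Nat.card T * Nat.card M = Nat.card (cen A) := by
    have h := AddSubgroup.card_mul_index (((QuotientAddGroup.mk' iM).addSubgroupMap (cen A)).ker)
    have e1 : ((QuotientAddGroup.mk' iM).addSubgroupMap (cen A)).ker = M.addSubgroupOf (cen A) := by
      ext x
      rw [AddMonoidHom.mem_ker, AddSubgroup.mem_addSubgroupOf, ← QuotientAddGroup.eq_zero_iff (N := iM),
        Subtype.ext_iff]
      rfl
    rw [AddSubgroup.index_ker, AddMonoidHom.range_eq_top.2 (AddMonoidHom.addSubgroupMap_surjective _ _),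
      AddSubgroup.card_top, e1, Nat.card_congr (AddSubgroup.addSubgroupOfEquivOfLe (hMcen A hAH)).toEquiv] at h
    rw [← h, mul_comm]
  have hsurj : ∀ t ∈ T, ∃ a : A, Multiplicative.toAdd (f a) = t := by
    have h1 := f.ker.card_mul_index
    rw [Subgroup.index_ker] at h1
    have h3 : Nat.card T ≤ Nat.card f.range := by
      refine Nat.le_of_mul_le_mul_right ?_ (Nat.mul_pos (Nat.card_pos (α := ↥(ker A W))) (Nat.card_pos (α := ↥M)))
      calc Nat.card T * (Nat.card (ker A W) * Nat.card M) = Nat.card (cen A) * Nat.card (ker A W) := by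
            rw [← hT]; ring
        _ ≤ Nat.card A * Nat.card M := hsmall
        _ ≤ Nat.card f.range * Nat.card (ker A W) * Nat.card M := by
            rw [← h1, mul_comm (Nat.card f.ker)]
            exact Nat.mul_le_mul_right _ (Nat.mul_le_mul_left _ hkerle)
        _ = Nat.card f.range * (Nat.card (ker A W) * Nat.card M) := by ring
    let j : f.range → T := fun x => ⟨Multiplicative.toAdd (x : Multiplicative (V ⧸ iM)), by
      obtain ⟨a, ha⟩ := x.2; rw [← ha]; exact hrange a⟩
    have hj : Function.Injective j := fun x x' h => Subtype.ext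
      (Multiplicative.toAdd.injective (congrArg (fun z : T => (z : V ⧸ iM)) h))
    intro t ht
    obtain ⟨⟨x, a, rfl⟩, hx⟩ := (hj.bijective_of_nat_card_le h3).2 ⟨t, ht⟩
    exact ⟨a, congrArg Subtype.val hx⟩
  obtain ⟨c, hc⟩ := hsurj _ (AddSubgroup.mem_map_of_mem (QuotientAddGroup.mk' iM) huA)
  have hcy : (c : G) • y + y + u ∈ M := by
    have h : ((((c : G) • y + y + u : V)) : V ⧸ iM) = 0 := by
      rw [QuotientAddGroup.mk_add]
      have hc' : (((c : G) • y + y : V) : V ⧸ iM) = (u : V ⧸ iM) := hc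
      rw [hc', ← QuotientAddGroup.mk_add, h2, QuotientAddGroup.mk_zero]
    exact (QuotientAddGroup.eq_zero_iff _).1 h
  -- `T = c b` has a fixed plane
  have hcH : (c : G) ∈ H := hAH c.2
  have hbH : b ∈ H := hBH hb
  have hcc : ∀ v : V, (c : G) • (c : G) • v = v := sq_fix h2 hP hA c.2
  have hbb : ∀ v : V, b • b • v = v := sq_fix h2 hP hB hb
  let τ : V →+ V :=
    { toFun := fun v => (c : G) • b • v
      map_zero' := by simp
      map_add' := fun v v' => by simp [smul_add] }
  let φ : V →+ V := τ.comp τ + τ + AddMonoidHom.id V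
  have hτW : ∀ v ∈ W, τ v ∈ W := fun v hv => hW _ hcH _ (hW b hbH v hv)
  have hτM : ∀ v ∈ M, τ v ∈ M := fun v hv => hMinv _ hcH _ (hMinv b hbH v hv)
  have hφu : φ u ∈ M := by
    have hm1 : (c : G) • u + u ∈ M := huA.2 _ c.2
    have e1 : τ u + y ∈ M := by
      have e : τ u + y = ((c : G) • y + y + u) + ((c : G) • u + u) + ((y + y) + 0) := by
        show (c : G) • b • u + y = _
        have hbu' : b • u = y + u := by rw [hy, add_add_self h2]
        rw [hbu', smul_add, h2, add_zero, add_zero,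
          show (c : G) • y + y + u + ((c : G) • u + u) = ((c : G) • y + (c : G) • u + y) + (u + u) by abel, h2, add_zero]
      rw [e, h2, add_zero, add_zero]
      exact M.add_mem hcy hm1
    have e2 : τ y + y + u ∈ M := by
      show (c : G) • b • y + y + u ∈ M
      rw [hyB b hb]; exact hcy
    have e : φ u = τ (τ u + y) + (τ y + y + u) + (τ u + y) + ((y + y) + 0) := by
      show τ (τ u) + τ u + u = _
      rw [map_add, h2, add_zero, add_zero,
        show τ (τ u) + τ y + (τ y + y + u) + (τ u + y) = τ (τ u) + τ u + u + ((τ y + τ y) + (y + y)) by abel,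
        h2, h2, add_zero, add_zero]
    rw [e, h2, add_zero, add_zero]
    exact M.add_mem (M.add_mem (hτM _ e1) e2) e1
  obtain ⟨k, hkW, hk0, hkφ⟩ : ∃ k ∈ W, k ≠ 0 ∧ φ k = 0 := by
    by_contra hcon
    push Not at hcon
    let ψ : ↥M → ↥M := fun m => ⟨φ m, M.add_mem (M.add_mem (hτM _ (hτM _ m.2)) (hτM _ m.2)) m.2⟩
    have hψ : Function.Injective ψ := fun m m' h => by
      have h' : φ ((m : V) - m') = 0 := by
        rw [map_sub, sub_eq_zero]; exact congrArg Subtype.val h
      by_contra hne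
      exact hcon _ (W.sub_mem (hMW.le m.2) (hMW.le m'.2)) (sub_ne_zero.2 fun e => hne (Subtype.ext e)) h'
    obtain ⟨m, hm⟩ := (Finite.injective_iff_surjective.1 hψ) ⟨φ u, hφu⟩
    have h' : φ (u - (m : V)) = 0 := by
      rw [map_sub, sub_eq_zero]; exact (congrArg Subtype.val hm).symm
    refine hcon _ (W.sub_mem huA.1 (hMW.le m.2)) (sub_ne_zero.2 fun e => huM (e ▸ m.2)) h'
  have hk3 : ∀ k : V, φ k = 0 → τ (τ k) = τ k + k ∧ τ (τ (τ k)) = k := by
    intro k hk
    have h1 : τ (τ k) = τ k + k := by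
      have h : τ (τ k) + τ k + k = 0 := hk
      rw [add_assoc] at h
      have := congrArg (fun z => z + (τ k + k)) h
      simpa only [add_add_self h2, zero_add] using this
    refine ⟨h1, ?_⟩
    rw [h1, map_add, h1, add_comm (τ k) k, add_add_self h2]
  -- make the vector fixed by `c`
  obtain ⟨w, hw0, hwc, hwφ⟩ : ∃ w : V, w ≠ 0 ∧ (c : G) • w = w ∧ φ w = 0 := by
    by_cases hck : (c : G) • k + k = 0
    · refine ⟨k, hk0, ?_, hkφ⟩
      have := congrArg (fun z => z + k) hck
      simpa only [add_add_self h2, zero_add] using this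
    · refine ⟨(c : G) • k + k, hck, by rw [smul_add, hcc, add_comm], ?_⟩
      have hinvk : ∀ z, (c : G) • b • z = k → z = τ (τ k) := fun z hz => by
        have h3 := (hk3 k hkφ).2
        have hinj : Function.Injective τ := fun v v' h => by
          have := congrArg (fun x => b • (c : G) • x) h
          simpa [τ, hcc, hbb] using this
        exact hinj (hz.trans h3.symm)
      have hbc : b • (c : G) • k = τ (τ k) := hinvk _ (by rw [hbb, hcc])
      have hbc2 : b • (c : G) • τ (τ k) = τ k := by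
        show b • (c : G) • (c : G) • b • τ k = τ k
        rw [hcc, hbb]
      have hφc : φ ((c : G) • k) = 0 := by
        show (c : G) • b • (c : G) • b • (c : G) • k + (c : G) • b • (c : G) • k + (c : G) • k = 0
        rw [hbc, hbc2, (hk3 k hkφ).1, ← smul_add, ← smul_add, ← add_assoc, h2, zero_add, h2, smul_zero]
      rw [map_add, hφc, hkφ, add_zero]
  obtain ⟨h1, h3⟩ := hk3 w hwφ
  apply hno
  have hbw : b • w = w + τ w := by
    calc b • w = (c : G) • (c : G) • b • w := (hcc _).symm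
      _ = (c : G) • τ w := rfl
      _ = w + τ w := by
        have h4 : b • (c : G) • w = τ (τ w) := by
          have hinj : Function.Injective τ := fun v v' h => by
            have := congrArg (fun x => b • (c : G) • x) h
            simpa [τ, hcc, hbb] using this
          refine hinj (Eq.trans ?_ h3.symm)
          show (c : G) • b • b • (c : G) • w = w
          rw [hbb, hcc]
        show (c : G) • (c : G) • b • w = _
        rw [hcc, add_comm, ← h1, ← h4, hwc]
  refine ⟨c, b, w, τ w, hw0, fun e => hw0 ?_, fun e => hw0 ?_, hwc, ?_, hbw, ?_⟩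
  · rw [← h3, e, map_zero, map_zero]
  · rw [e, e, h2] at h1; exact h1
  · show (c : G) • (c : G) • b • w = w + τ w
    rw [hcc, hbw]
  · have := congrArg (fun z => b • z) hbw
    rw [hbb, smul_add, hbw] at this
    have h5 := congrArg (fun z => z + (w + τ w)) this
    rw [add_comm (w + τ w) (b • τ w), add_add_self h2, ← add_assoc, h2, zero_add] at h5
    exact h5.symm

/-- The main lemma. -/
theorem exists_plane (h2 : ∀ v : V, v + v = 0) (hP : Quadratic G V) :
    ∀ (W : AddSubgroup V) (A B : Subgroup G), IsPGroup 2 A → IsPGroup 2 B → Inv (A ⊔ B) W → Best A W → Best B W →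
      ¬ Uni (A ⊔ B) W → HasPlane G V := by
  intro W
  induction W using WellFoundedLT.induction with
  | _ W ihW =>
  suffices key : ∀ H : Subgroup G, ∀ A B : Subgroup G, A ⊔ B = H → IsPGroup 2 A → IsPGroup 2 B → Inv (A ⊔ B) W →
      Best A W → Best B W → ¬ Uni (A ⊔ B) W → HasPlane G V from fun A B => key _ A B rfl
  intro H
  induction H using WellFoundedLT.induction with
  | _ H ihH =>
  rintro A B rfl hA hB hi hbA hbB hn
  have hrec : Below G V W (A ⊔ B) := by
    rintro W' A' B' (h | ⟨rfl, h⟩)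
    · exact ihW W' h A' B'
    · exact ihH _ h A' B' rfl
  by_cases hle : Nat.card B * Nat.card (ker A W) ≤ Nat.card A * Nat.card (ker B W)
  · exact step h2 hP hA hB hi hbA hbB hn hle hrec
  · rw [sup_comm] at hi hn hrec
    exact step h2 hP hB hA hi hbB hbA hn (le_of_not_ge hle) hrec

end Cfsg.Agent.Lib.QuadPair
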